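import Mathlib
import Cfsg.Agent.Lib.M24Geom.Six

/-! Orbits, fixed points of prime-order elements and Sylow 2-subgroups in subgroups of `M24`. -/

set_option autoImplicit false

namespace H16.MI
open Cfsg H15 H55.Golay H96.Geo
open scoped Pointwise

/-- the symmetric group of the 24 points -/
abbrev PG := Equiv.Perm GolayPt

theorem modEq_fixed {Γ X : Type*} [Group Γ] [MulAction Γ X] {p : ℕ} [Fact p.Prime]
    (P : Subgroup Γ) (hP : IsPGroup p P) (Ω : Set X) (hΩ : Ω.Finite)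
    (h : ∀ g ∈ P, ∀ x ∈ Ω, g • x ∈ Ω) :
    Ω.ncard ≡ {x | x ∈ Ω ∧ ∀ g ∈ P, g • x = x}.ncard [MOD p] := by
  let S : SubMulAction P X := ⟨Ω, fun g _ hx => h g g.2 _ hx⟩
  have : Finite S := hΩ
  have h1 := hP.card_modEq_card_fixedPoints S
  have e1 : Nat.card S = Ω.ncard := rfl
  have e2 : Nat.card (MulAction.fixedPoints P S) =
      {x | x ∈ Ω ∧ ∀ g ∈ P, g • x = x}.ncard := by
    rw [← Nat.card_coe_set_eq]
    refine Nat.card_congr ⟨fun a => ⟨a.1.1, a.1.2, fun g hg => congrArg Subtype.val (a.2 ⟨g, hg⟩)⟩,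
      fun a => ⟨⟨a.1, a.2.1⟩, fun g => Subtype.ext (a.2.2 g g.2)⟩, fun _ => rfl, fun _ => rfl⟩
  rwa [e1, e2] at h1

theorem exists_fixed {Γ X : Type*} [Group Γ] [MulAction Γ X] {p : ℕ} [Fact p.Prime]
    (P : Subgroup Γ) (hP : IsPGroup p P) (Ω : Set X) (hΩ : Ω.Finite)
    (h : ∀ g ∈ P, ∀ x ∈ Ω, g • x ∈ Ω) (hn : ¬ p ∣ Ω.ncard) : ∃ x ∈ Ω, ∀ g ∈ P, g • x = x := by
  have h1 := modEq_fixed P hP Ω hΩ h
  by_contra hc
  have : {x | x ∈ Ω ∧ ∀ g ∈ P, g • x = x} = ∅ :=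
    Set.eq_empty_of_forall_notMem fun x hx => hc ⟨x, hx.1, hx.2⟩
  rw [this, Set.ncard_empty] at h1
  exact hn ((Nat.modEq_zero_iff_dvd).1 h1)

theorem modEq_fix {p : ℕ} (hp : p.Prime) {g : PG} (hg : orderOf g = p) {s : Finset GolayPt}
    (hs : g • s = s) : s.card % p = (s ∩ Fix g).card % p := by
  have := Fact.mk hp
  have hP : IsPGroup p (Subgroup.zpowers g) :=
    IsPGroup.of_card (n := 1) (by rw [Nat.card_zpowers, hg, pow_one])
  have hle : Subgroup.zpowers g ≤ St s := (Subgroup.zpowers_le).2 hs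
  have h1 := modEq_fixed (Subgroup.zpowers g) hP (s : Set GolayPt) s.finite_toSet
    fun k hk x hx => (apply_mem_of_smul_eq (hle hk)).2 hx
  have e : {x | x ∈ (s : Set GolayPt) ∧ ∀ k ∈ Subgroup.zpowers g, k • x = x} =
      ((s ∩ Fix g : Finset GolayPt) : Set GolayPt) := by
    ext x
    simp only [Set.mem_ofPred_eq, Finset.mem_coe, Finset.mem_inter, mem_Fix]
    refine and_congr Iff.rfl ⟨fun h => h g (Subgroup.mem_zpowers g), fun h k hk => ?_⟩
    exact (Subgroup.zpowers_le (H := St x)).2 h hk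
  rwa [e, Set.ncard_coe_finset, Set.ncard_coe_finset] at h1

theorem exists_ord {K : Subgroup PG} {p : ℕ} (hp : p.Prime) (h : p ∣ Nat.card K) :
    ∃ g ∈ K, orderOf g = p := by
  have := Fact.mk hp
  obtain ⟨g, hg⟩ := exists_prime_orderOf_dvd_card' (G := K) p h
  exact ⟨g, g.2, by rw [Subgroup.orderOf_coe, hg]⟩

theorem exists_psub {K : Subgroup PG} {p n : ℕ} (hp : p.Prime) (h : p ^ n ∣ Nat.card K) :
    ∃ P : Subgroup PG, P ≤ K ∧ Nat.card P = p ^ n := by
  have := Fact.mk hp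
  obtain ⟨P, hP⟩ := Sylow.exists_subgroup_card_pow_prime (G := K) p h
  exact ⟨P.map K.subtype, Subgroup.map_subtype_le _, by rw [Subgroup.card_map_of_injective
    K.subtype_injective, hP]⟩

theorem eq_of_le_card {K L : Subgroup PG} (h : K ≤ L) (hc : Nat.card L ≤ Nat.card K) : K = L :=
  Subgroup.eq_of_le_of_card_ge h hc

/-! ### fixed points of elements of prime order -/

theorem fix_of_ord {g : PG} (hg : g ∈ M24) :
    (orderOf g = 7 → (Fix g).card = 3) ∧ (orderOf g = 5 → (Fix g).card = 4) ∧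
      (orderOf g = 11 → (Fix g).card = 2) ∧ orderOf g ≠ 22 := by
  obtain ⟨e, he, h1, h2, -⟩ := M24.table.data hg
  have key : ∀ e ∈ M24.cls, (e.o = 7 → e.f = 3) ∧ (e.o = 5 → e.f = 4) ∧ (e.o = 11 → e.f = 2) ∧
      e.o ≠ 22 := by decide +kernel
  rw [h1, h2]
  exact key e he

theorem fix7 {g : PG} (hg : g ∈ M24) (h : orderOf g = 7) : (Fix g).card = 3 := (fix_of_ord hg).1 h
theorem fix5 {g : PG} (hg : g ∈ M24) (h : orderOf g = 5) : (Fix g).card = 4 :=
  (fix_of_ord hg).2.1 h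
theorem fix11 {g : PG} (hg : g ∈ M24) (h : orderOf g = 11) : (Fix g).card = 2 :=
  (fix_of_ord hg).2.2.1 h

theorem fix3 {g : PG} (hg : g ∈ M24) (h : orderOf g = 3) {x : GolayPt} (hx : g x = x) :
    (Fix g).card = 6 := by
  rcases conj3 hg h with c | c
  · exact c.1
  · exact absurd hx (card_Fix_eq_zero.1 c.1 x)

/-! ### orbits as finsets -/

open Classical in
/-- the orbit of a point -/
noncomputable def orb (K : Subgroup PG) (x : GolayPt) : Finset GolayPt :=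
  Finset.univ.filter fun y => ∃ g ∈ K, g x = y

theorem mem_orb {K : Subgroup PG} {x y : GolayPt} : y ∈ orb K x ↔ ∃ g ∈ K, g x = y := by
  simp [orb]

theorem self_mem_orb (K : Subgroup PG) (x : GolayPt) : x ∈ orb K x := mem_orb.2 ⟨1, K.one_mem, rfl⟩

theorem card_orb (K : Subgroup PG) (x : GolayPt) :
    Nat.card K = (orb K x).card * Nat.card ↥(K ⊓ St x) := by
  have := card_eq_of_orbit K x (orb K x : Set GolayPt) (fun g hg => mem_orb.2 ⟨g, hg, rfl⟩)
    (fun y hy => mem_orb.1 hy)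
  rwa [Set.ncard_coe_finset] at this

theorem card_orb_dvd (K : Subgroup PG) (x : GolayPt) : (orb K x).card ∣ Nat.card K :=
  ⟨_, card_orb K x⟩

theorem smul_orb {K : Subgroup PG} {g : PG} (hg : g ∈ K) (x : GolayPt) : g • orb K x = orb K x :=
  smul_eq_of_maps (fun _ hp => by
    obtain ⟨k, hk, rfl⟩ := mem_orb.1 hp
    exact mem_orb.2 ⟨g * k, K.mul_mem hg hk, rfl⟩) le_rfl

theorem orb_subset {K : Subgroup PG} {s : Finset GolayPt} (h : K ≤ St s) {x : GolayPt}
    (hx : x ∈ s) : orb K x ⊆ s := fun _ hy => by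
  obtain ⟨k, hk, rfl⟩ := mem_orb.1 hy
  exact (apply_mem_of_smul_eq (h hk)).2 hx

theorem orb_eq {K : Subgroup PG} {x y : GolayPt} (h : y ∈ orb K x) : orb K y = orb K x := by
  obtain ⟨k, hk, rfl⟩ := mem_orb.1 h
  ext z
  rw [mem_orb, mem_orb]
  exact ⟨fun ⟨g, hg, e⟩ => ⟨g * k, K.mul_mem hg hk, e⟩,
    fun ⟨g, hg, e⟩ => ⟨g * k⁻¹, K.mul_mem hg (K.inv_mem hk), by simpa using e⟩⟩

theorem orb_mono {K L : Subgroup PG} (h : K ≤ L) (x : GolayPt) : orb K x ⊆ orb L x :=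
  fun _ hy => by
    obtain ⟨k, hk, e⟩ := mem_orb.1 hy
    exact mem_orb.2 ⟨k, h hk, e⟩

theorem le_St_orb (K : Subgroup PG) (x : GolayPt) : K ≤ St (orb K x) := fun _ hg => smul_orb hg x

theorem notMem_orb {K : Subgroup PG} {x y : GolayPt} (h : K ≤ St x) (hy : y ≠ x) :
    x ∉ orb K y := fun hx => by
  obtain ⟨k, hk, e⟩ := mem_orb.1 hx
  exact ne_of_fix (h hk) hy e

theorem orb_fix {K : Subgroup PG} {x : GolayPt} (h : K ≤ St x) : orb K x = {x} := by
  ext y
  rw [mem_orb, Finset.mem_singleton]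
  exact ⟨fun ⟨g, hg, e⟩ => e.symm.trans (h hg), fun e => ⟨1, K.one_mem, e.symm⟩⟩

theorem le_St_of_card_orb {K : Subgroup PG} {x : GolayPt} (h : (orb K x).card ≤ 1) : K ≤ St x :=
  fun g hg => Finset.card_le_one.1 h _ (mem_orb.2 ⟨g, hg, rfl⟩) _ (self_mem_orb K x)

theorem orb_conj {K : Subgroup PG} {h : PG} (hh : h ∈ K) (x y : GolayPt) :
    orb (K ⊓ St (h x)) (h y) = h • orb (K ⊓ St x) y := by
  ext z
  rw [mem_smul_finset_iff, mem_orb, mem_orb]
  constructor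
  · rintro ⟨g, hg, rfl⟩
    refine ⟨h⁻¹ * g * h, ⟨K.mul_mem (K.mul_mem (K.inv_mem hh) hg.1) hh, ?_⟩, rfl⟩
    have : g (h x) = h x := hg.2
    show h⁻¹ (g (h x)) = x
    rw [this]; simp
  · rintro ⟨g, hg, e⟩
    refine ⟨h * g * h⁻¹, ⟨K.mul_mem (K.mul_mem hh hg.1) (K.inv_mem hh), ?_⟩, ?_⟩
    · have : g x = x := hg.2
      show h (g (h⁻¹ (h x))) = h x
      simp [this]
    · show h (g (h⁻¹ (h y))) = z
      simp [e]

theorem card_le24 (s : Finset GolayPt) : s.card ≤ 24 := by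
  rw [← card_golayPt]; exact s.card_le_univ

theorem card_compl24 (s : Finset GolayPt) : sᶜ.card = 24 - s.card := by
  rw [Finset.card_compl, card_golayPt]

/-! ### equivariant families of point sets -/

/-- an equivariant family of point sets -/
structure Eqv (K : Subgroup PG) (B : GolayPt → Finset GolayPt) : Prop where
  self : ∀ x, x ∈ B x
  eqv : ∀ h ∈ K, ∀ x, B (h x) = h • B x

/-- points whose orbit under the stabiliser of `x` has length with property `Q` -/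
noncomputable def Bq (Q : ℕ → Bool) (K : Subgroup PG) (x : GolayPt) : Finset GolayPt :=
  Finset.univ.filter fun y => Q (orb (K ⊓ St x) y).card = true

theorem mem_Bq {Q : ℕ → Bool} {K : Subgroup PG} {x y : GolayPt} :
    y ∈ Bq Q K x ↔ Q (orb (K ⊓ St x) y).card = true := by simp [Bq]

theorem Bq_eqv (Q : ℕ → Bool) {K : Subgroup PG} {h : PG} (hh : h ∈ K) (x : GolayPt) :
    Bq Q K (h x) = h • Bq Q K x := by
  ext z
  obtain ⟨y, rfl⟩ := h.surjective z
  rw [apply_mem_smul_iff, mem_Bq, mem_Bq, orb_conj hh, card_smul]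

theorem eqv_Bq {Q : ℕ → Bool} (hQ : Q 1 = true) (K : Subgroup PG) : Eqv K (Bq Q K) :=
  ⟨fun x => by rw [mem_Bq, orb_fix inf_le_right, Finset.card_singleton]; exact hQ,
    fun _ hh x => Bq_eqv Q hh x⟩

theorem Eqv.smul {K : Subgroup PG} {B : GolayPt → Finset GolayPt} (E : Eqv K B) {g : PG}
    (hg : g ∈ K) {x : GolayPt} (hx : g x = x) : g • B x = B x := by
  rw [← E.eqv g hg, hx]

theorem Eqv.card_eq {K : Subgroup PG} {B : GolayPt → Finset GolayPt} (E : Eqv K B)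
    {x y : GolayPt} (h : y ∈ orb K x) : (B y).card = (B x).card := by
  obtain ⟨k, hk, rfl⟩ := mem_orb.1 h
  rw [E.eqv k hk, card_smul]

theorem Eqv.eq_fix {K : Subgroup PG} {B : GolayPt → Finset GolayPt} (E : Eqv K B) {p : ℕ}
    (hp : p.Prime) {g : PG} (hg : g ∈ K) (ho : orderOf g = p) {x : GolayPt} (hx : g x = x)
    (hc : (B x).card = (Fix g).card) (hlt : (B x).card < p) : B x = Fix g := by
  have h1 := modEq_fix hp ho (E.smul hg hx)
  have h2 := Finset.card_le_card (Finset.inter_subset_left (s₁ := B x) (s₂ := Fix g))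
  rw [Nat.mod_eq_of_lt hlt, Nat.mod_eq_of_lt (by omega)] at h1
  have h3 : B x ∩ Fix g = B x :=
    Finset.eq_of_subset_of_card_le Finset.inter_subset_left h1.le
  exact Finset.eq_of_subset_of_card_le (Finset.inter_eq_left.1 h3) hc.ge

theorem Eqv.blocks {K : Subgroup PG} (hK : K ≤ M24) {B : GolayPt → Finset GolayPt} (E : Eqv K B)
    {p b : ℕ} (hp : p.Prime) (hb : ∀ x, (B x).card = b) (hlt : b < p)
    (hd : ∀ x : GolayPt, p ∣ Nat.card ↥(K ⊓ St x)) (hf : ∀ g ∈ M24, orderOf g = p → (Fix g).card = b) :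
    ∀ x y, y ∈ B x → B y = B x := by
  intro x y hy
  obtain ⟨g, hg, ho⟩ := exists_ord hp (hd x)
  have hF := hf g (hK hg.1) ho
  have e1 := E.eq_fix hp hg.1 ho hg.2 (by rw [hb, hF]) (by rw [hb]; exact hlt)
  rw [e1] at hy ⊢
  exact E.eq_fix hp hg.1 ho (mem_Fix.1 hy) (by rw [hb, hF]) (by rw [hb]; exact hlt)

theorem blocks_false {B : GolayPt → Finset GolayPt} (hs : ∀ x, x ∈ B x)
    (hB : ∀ x y, y ∈ B x → B y = B x) {Φ : Finset GolayPt} {m : ℕ}
    (h : ∀ x ∈ Φ, (B x ∩ Φ).card = m) (h1 : m < Φ.card) (h2 : Φ.card < 2 * m) : False := by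
  obtain ⟨a, ha⟩ : Φ.Nonempty := Finset.card_pos.1 (by omega)
  obtain ⟨c, hc, hca⟩ := Finset.exists_mem_notMem_of_card_lt_card (s := B a ∩ Φ) (t := Φ)
    (by rw [h a ha]; exact h1)
  have hd : Disjoint (B a ∩ Φ) (B c ∩ Φ) := by
    rw [Finset.disjoint_left]
    intro z hz hz'
    apply hca
    rw [Finset.mem_inter, ← hB a z (Finset.mem_inter.1 hz).1, hB c z (Finset.mem_inter.1 hz').1]
    exact ⟨hs c, hc⟩
  have h3 := Finset.card_le_card (Finset.union_subset (Finset.inter_subset_right (s₁ := B a))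
    (Finset.inter_subset_right (s₁ := B c) (s₂ := Φ)))
  rw [Finset.card_union_of_disjoint hd, h a ha, h c hc] at h3
  omega

/-! ### orders of some stabilisers -/

theorem card_stab4 {p q r s : GolayPt} (hpq : p ≠ q) (hpr : p ≠ r) (hqr : q ≠ r) (hps : p ≠ s)
    (hqs : q ≠ s) (hrs : r ≠ s) : Nat.card ↥(M24 ⊓ St p ⊓ St q ⊓ St r ⊓ St s) = 960 := by
  have := card_eq_of_orbit (M24 ⊓ St p ⊓ St q ⊓ St r) s
    ((({p, q, r} : Finset GolayPt) : Set GolayPt)ᶜ)
    (fun g hg => by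
      simpa using ⟨ne_of_fix hg.1.1.2 hps.symm, ne_of_fix hg.1.2 hqs.symm, ne_of_fix hg.2 hrs.symm⟩)
    (fun t ht => by
      obtain ⟨g, hg, h1, h2, h3, h4⟩ := M24_trans4 hpq hpr hps hqr hqs hrs hpq hpr
        (show p ≠ t from fun e => ht (by simp [e])) hqr (show q ≠ t from fun e => ht (by simp [e]))
        (show r ≠ t from fun e => ht (by simp [e]))
      exact ⟨g, ⟨⟨⟨hg, h1⟩, h2⟩, h3⟩, h4⟩)
  rw [card_stab3 hpq hpr hqr, ncard_compl_finset,
    Finset.card_eq_three.2 ⟨p, q, r, hpq, hpr, hqr, rfl⟩] at this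
  show Nat.card ↥(M24 ⊓ St p ⊓ St q ⊓ St r ⊓ MulAction.stabilizer (Equiv.Perm GolayPt) s) = _
  omega

theorem card_stab_octad_pt {o : Finset GolayPt} (ho : o ∈ octads) {x : GolayPt} (hx : x ∈ o) :
    Nat.card ↥(M24 ⊓ St x ⊓ St o) = 40320 := by
  have := card_eq_of_orbit (M24 ⊓ St o) x (o : Set GolayPt)
    (fun g hg => (apply_mem_of_smul_eq hg.2).2 hx)
    (fun q hq => by
      obtain ⟨g, hg, e, h⟩ := M24_trans_octad_flag_le ho ho (k := 1) (by norm_num) ![x] ![q]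
        (Function.injective_of_subsingleton _) (Function.injective_of_subsingleton _)
        (fun i => by fin_cases i; exact hx) (fun i => by fin_cases i; exact hq)
      exact ⟨g, ⟨hg, e⟩, h 0⟩)
  rw [card_stab_octad ho, Set.ncard_coe_finset, ho.2] at this
  rw [inf_right_comm]
  show Nat.card ↥(M24 ⊓ St o ⊓ MulAction.stabilizer (Equiv.Perm GolayPt) x) = _
  omega

theorem ncard_octads_thru (x : GolayPt) : {o | o ∈ octads ∧ x ∈ o}.ncard = 253 := by
  obtain ⟨o, ho, hxo⟩ := exists_octad_superset (s := {x}) (by simp)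
  have hx : x ∈ o := hxo (Finset.mem_singleton_self x)
  have := card_eq_of_orbit (M24 ⊓ St x) o {o | o ∈ octads ∧ x ∈ o}
    (fun g hg => ⟨smul_mem_octads hg.1 ho, by
      have h1 := (apply_mem_smul_iff g o x).2 hx
      rwa [show g x = x from hg.2] at h1⟩)
    (fun o' ho' => by
      obtain ⟨g, hg, e, h⟩ := M24_trans_octad_flag_le ho ho'.1 (k := 1) (by norm_num) ![x] ![x]
        (Function.injective_of_subsingleton _) (Function.injective_of_subsingleton _)
        (fun i => by fin_cases i; exact hx) (fun i => by fin_cases i; exact ho'.2)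
      exact ⟨g, ⟨hg, h 0⟩, e⟩)
  have h2 := card_stab_octad_pt ho hx
  rw [card_stab1] at this
  change _ = _ * Nat.card ↥(M24 ⊓ St x ⊓ St o) at this
  rw [h2] at this
  omega

theorem card_le_pair {L : Subgroup PG} {s : Finset GolayPt} (hs : s.card = 2) (hL : L ≤ St s)
    {n : ℕ} (h : ∀ y ∈ s, ∀ z ∈ s, y ≠ z → Nat.card ↥(L ⊓ St y ⊓ St z) ≤ n) :
    Nat.card L ≤ 2 * n := by
  obtain ⟨y, z, hyz, rfl⟩ := Finset.card_eq_two.1 hs
  have h1 := card_orb L y
  have h2 := Finset.card_le_card (orb_subset hL (Finset.mem_insert_self y {z}))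
  have h3 : L ⊓ St y ≤ L ⊓ St y ⊓ St z := fun g hg => ⟨hg, by
    have h4 := (apply_mem_of_smul_eq (hL hg.1)).2 (show z ∈ ({y, z} : Finset GolayPt) by simp)
    rcases Finset.mem_insert.1 h4 with e | e
    · exact absurd e (ne_of_fix hg.2 hyz.symm)
    · exact Finset.mem_singleton.1 e⟩
  have h5 := Subgroup.card_le_of_le h3
  have h6 := h y (by simp) z (by simp) hyz
  rw [h1]
  exact Nat.mul_le_mul (by omega) (by omega)

/-! ### Sylow 2-subgroups contain the pointwise stabiliser of a fixed octad -/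

theorem fixSet_le_of_sylow {P G : Subgroup PG} (hPG : P ≤ G) (hG : G ≤ M24) {n : ℕ}
    (hP : Nat.card P = 2 ^ n) (hn : ¬ 2 ^ (n + 1) ∣ Nat.card G) {o : Finset GolayPt}
    (ho : o ∈ octads) (hPo : P ≤ St o) (hE : fixSet o ≤ G) : fixSet o ≤ P := by
  have : Fact (Nat.Prime 2) := ⟨Nat.prime_two⟩
  have h1 : IsPGroup 2 P := IsPGroup.of_card hP
  have h2 : IsPGroup 2 (fixSet o) := IsPGroup.of_card (n := 4) (card_fixSet_octad ho)
  have h3 : P ≤ Subgroup.normalizer (fixSet o : Set PG) := fun k hk =>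
    Subgroup.mem_normalizer_iff.2 fun g => (conj_mem_fixSet_iff (hG (hPG hk)) (hPo hk) g).symm
  obtain ⟨m, hm⟩ := IsPGroup.iff_card.1 (IsPGroup.to_sup_of_normal_right' h1 h2 h3)
  have h4 := Subgroup.card_dvd_of_le (sup_le hPG hE)
  rw [hm] at h4
  have h5 : m ≤ n := by
    by_contra hc
    exact hn ((pow_dvd_pow 2 (by omega)).trans h4)
  have h6 : P = P ⊔ fixSet o :=
    eq_of_le_card le_sup_left (by rw [hm, hP]; exact Nat.pow_le_pow_right (by norm_num) h5)
  rw [h6]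
  exact le_sup_right

theorem exists_octad_fixSet_le {K : Subgroup PG} {x : GolayPt} (hK : K ≤ M24 ⊓ St x)
    (h : 128 ∣ Nat.card K) : ∃ o ∈ octads, x ∈ o ∧ fixSet o ≤ K := by
  have : Fact (Nat.Prime 2) := ⟨Nat.prime_two⟩
  obtain ⟨P, hPK, hP⟩ := exists_psub (n := 7) Nat.prime_two h
  obtain ⟨o, ho, hf⟩ := exists_fixed P (IsPGroup.of_card hP) {o | o ∈ octads ∧ x ∈ o}
    (Set.toFinite _) (fun g hg o ho => ⟨smul_mem_octads (hK (hPK hg)).1 ho.1, by
      have h1 := (apply_mem_smul_iff g o x).2 ho.2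
      rwa [show g x = x from (hK (hPK hg)).2] at h1⟩) (by rw [ncard_octads_thru]; norm_num)
  refine ⟨o, ho.1, ho.2, le_trans ?_ hPK⟩
  exact fixSet_le_of_sylow (hPK.trans hK) inf_le_left hP (by rw [card_stab1]; norm_num) ho.1 hf
    fun g hg => ⟨hg.1, (mem_fixSet.1 hg).2 x ho.2⟩

theorem compl_subset_orb {K : Subgroup PG} {o : Finset GolayPt} (ho : o ∈ octads)
    (hE : fixSet o ≤ K) {w : GolayPt} (hw : w ∉ o) : oᶜ ⊆ orb K w := fun y hy => by
  obtain ⟨g, hg, e⟩ := fixSet_octad_trans ho hw (Finset.mem_compl.1 hy)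
  exact mem_orb.2 ⟨g, hE hg, e⟩

theorem exists_notMem_octad {o : Finset GolayPt} (ho : o ∈ octads) : ∃ w, w ∉ o := by
  obtain ⟨w, hw⟩ : oᶜ.Nonempty := Finset.card_pos.1 (by rw [card_compl24, ho.2]; norm_num)
  exact ⟨w, Finset.mem_compl.1 hw⟩

theorem eqns_MIdx_Bas : True := by
  have := @orb.eq_def
  have := @orb.eq_1
  have := @Bq.eq_def
  have := @Bq.eq_1
  have := @PG.eq_def
  have := @PG.eq_1
  trivial

end H16.MI
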