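import Mathlib
import Cfsg.Agent.Lib.MIdx.Bas

/-! Subgroups of small index in `M24` and `M23`. -/

set_option autoImplicit false

namespace H16.MI
open Cfsg H15 H55.Golay H96.Geo
open scoped Pointwise

theorem le_St_compl {K : Subgroup PG} {s : Finset GolayPt} (h : K ≤ St s) : K ≤ St sᶜ :=
  fun g hg => by
    show g • sᶜ = sᶜ
    rw [smul_compl, h hg]

theorem card_inter_fix {g : PG} {s : Finset GolayPt} {x : GolayPt} (hx : x ∈ s) (hg : g x = x) :
    1 ≤ (s ∩ Fix g).card ∧ (s ∩ Fix g).card ≤ (Fix g).card :=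
  ⟨Finset.card_pos.2 ⟨x, Finset.mem_inter.2 ⟨hx, mem_Fix.2 hg⟩⟩,
    Finset.card_le_card Finset.inter_subset_right⟩

/-- subgroups of order 40320 of a point stabiliser -/
theorem m23_253 {K : Subgroup PG} {x : GolayPt} (hK : K ≤ M24 ⊓ St x) (hc : Nat.card K = 40320) :
    (∃ s : Finset GolayPt, s.card = 2 ∧ x ∉ s ∧ K = M24 ⊓ St x ⊓ St s) ∨
      ∃ o ∈ octads, x ∈ o ∧ K = M24 ⊓ St x ⊓ St o := by
  obtain ⟨o, ho, hx, hE⟩ := exists_octad_fixSet_le hK (by rw [hc]; norm_num)
  obtain ⟨w, hw⟩ := exists_notMem_octad ho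
  have h1 := compl_subset_orb ho hE hw
  have h2 : (orb K w)ᶜ ⊆ o := by simpa using Finset.compl_subset_compl.2 h1
  have h3 : x ∈ (orb K w)ᶜ :=
    Finset.mem_compl.2 (notMem_orb (hK.trans inf_le_right) fun e => hw (e ▸ hx))
  have h4 := le_St_compl (le_St_orb K w)
  obtain ⟨g, hg, hg7⟩ := exists_ord (p := 7) (by norm_num) (show 7 ∣ Nat.card K by rw [hc]; norm_num)
  have h5 := modEq_fix (by norm_num) hg7 (h4 hg)
  have h6 := card_inter_fix h3 (hK hg).2
  rw [fix7 (hK hg).1 hg7] at h6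
  have h7 := Finset.card_le_card h2
  rw [ho.2] at h7
  have h8 := card_orb_dvd K w
  have h9 := card_compl24 (orb K w)
  have h10 := card_le24 (orb K w)
  rw [hc] at h8
  have h11 : (orb K w).card = 23 ∨ (orb K w).card = 22 ∨ (orb K w).card = 21 ∨
      (orb K w).card = 16 := by omega
  rcases h11 with e | e | e | e
  · rw [e] at h8; norm_num at h8
  · rw [e] at h8; norm_num at h8
  · left
    have hs : ((orb K w)ᶜ.erase x).card = 2 := by rw [Finset.card_erase_of_mem h3]; omega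
    refine ⟨_, hs, Finset.notMem_erase x _, eq_of_le_card (le_inf hK fun k hk => ?_) ?_⟩
    · refine smul_eq_of_maps (fun p hp => ?_) le_rfl
      rw [Finset.mem_erase] at hp ⊢
      exact ⟨ne_of_fix (hK hk).2 hp.1, (apply_mem_of_smul_eq (h4 hk)).2 hp.2⟩
    · rw [hc]
      refine card_le_pair (n := 20160) hs inf_le_right fun y hy z hz hyz => ?_
      rw [← card_stab3 (Finset.mem_erase.1 hy).1.symm (Finset.mem_erase.1 hz).1.symm hyz]
      exact Subgroup.card_le_of_le fun k hk => ⟨⟨hk.1.1.1, hk.1.2⟩, hk.2⟩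
  · right
    have hs : (orb K w)ᶜ = o := Finset.eq_of_subset_of_card_le h2 (by rw [ho.2]; omega)
    rw [hs] at h4
    exact ⟨o, ho, hx, eq_of_le_card (le_inf hK h4) (by rw [card_stab_octad_pt ho hx, hc])⟩

/-- points with short orbit under the point stabiliser -/
noncomputable abbrev Bs (K : Subgroup PG) (x : GolayPt) : Finset GolayPt :=
  Bq (fun n => Nat.ble n 8) K x

theorem mem_Bs {K : Subgroup PG} {x y : GolayPt} :
    y ∈ Bs K x ↔ (orb (K ⊓ St x) y).card ≤ 8 := by
  rw [mem_Bq, Nat.ble_eq]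

theorem Bs_compl {K : Subgroup PG} {o : Finset GolayPt} (ho : o ∈ octads) (hE : fixSet o ≤ K)
    {y w : GolayPt} (hy : y ∈ o) (hw : w ∉ o) : Bs K y = (orb (K ⊓ St y) w)ᶜ ∧ Bs K y ⊆ o := by
  have hE' : fixSet o ≤ K ⊓ St y := fun g hg => ⟨hE hg, (mem_fixSet.1 hg).2 y hy⟩
  have h1 := compl_subset_orb ho hE' hw
  have h2 : (orb (K ⊓ St y) w)ᶜ ⊆ o := by simpa using Finset.compl_subset_compl.2 h1
  have h3 : Bs K y = (orb (K ⊓ St y) w)ᶜ := by
    ext z
    rw [mem_Bs, Finset.mem_compl]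
    constructor
    · intro h hz
      have h4 := Finset.card_le_card h1
      rw [card_compl24, ho.2, ← orb_eq hz] at h4
      omega
    · intro hz
      have h4 := Finset.card_le_card
        ((orb_subset (le_St_compl (le_St_orb _ w)) (Finset.mem_compl.2 hz)).trans h2)
      rwa [ho.2] at h4
  exact ⟨h3, h3 ▸ h2⟩

theorem sextet_of_trans {H : Subgroup PG} (hH : H ≤ M24) (ht : ∀ x y, y ∈ orb H x)
    (h2 : ∀ x : GolayPt, 128 ∣ Nat.card ↥(H ⊓ St x)) (h5 : ∀ x : GolayPt, 5 ∣ Nat.card ↥(H ⊓ St x))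
    (h11 : ¬ 11 ∣ Nat.card H) (h23 : ¬ 23 ∣ Nat.card H) : ∃ S ∈ sextets, H ≤ St S := by
  have E : Eqv H (Bs H) := eqv_Bq rfl H
  have hO : ∀ x : GolayPt, ∃ o ∈ octads, x ∈ o ∧ fixSet o ≤ H := fun x => by
    obtain ⟨o, ho, hx, hE⟩ := exists_octad_fixSet_le (inf_le_inf_right _ hH) (h2 x)
    exact ⟨o, ho, hx, hE.trans inf_le_left⟩
  obtain ⟨b, hb⟩ : ∃ b, ∀ x, (Bs H x).card = b := ⟨_, fun x => E.card_eq (ht none x)⟩
  have hd : ∀ x : GolayPt, 24 - b ∣ Nat.card ↥(H ⊓ St x) := fun x => by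
    obtain ⟨o, ho, hx, hE⟩ := hO x
    obtain ⟨w, hw⟩ := exists_notMem_octad ho
    have h1 := card_compl24 (orb (H ⊓ St x) w)
    have h3 := card_le24 (orb (H ⊓ St x) w)
    rw [← (Bs_compl ho hE hx hw).1, hb] at h1
    have h4 := card_orb_dvd (H ⊓ St x) w
    rwa [show (orb (H ⊓ St x) w).card = 24 - b by omega] at h4
  have hd' : 24 - b ∣ Nat.card H := (hd none).trans (Subgroup.card_dvd_of_le inf_le_left)
  obtain ⟨o, ho, hx, hE⟩ := hO none
  obtain ⟨w, hw⟩ := exists_notMem_octad ho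
  have hsub := (Bs_compl ho hE hx hw).2
  have hb8 : b ≤ 8 := by rw [← hb none, ← ho.2]; exact Finset.card_le_card hsub
  have hb1 : 1 ≤ b := by rw [← hb none]; exact Finset.card_pos.2 ⟨_, E.self none⟩
  obtain ⟨g, hg, hg5⟩ := exists_ord (p := 5) (by norm_num) (h5 none)
  have hF := fix5 (hH hg.1) hg5
  have c38 : (b = 3 ∨ b = 8) → (∀ x y, y ∈ Bs H x → Bs H y = Bs H x) → False := fun hb' hB => by
    refine blocks_false E.self hB (Φ := Fix g) (m := 3) (fun x hx => ?_) (by omega) (by omega)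
    have h6 := modEq_fix (by norm_num) hg5 (E.smul hg.1 (mem_Fix.1 hx))
    have h7 := card_inter_fix (E.self x) (mem_Fix.1 hx)
    rw [hb] at h6
    omega
  by_cases c5 : 5 ≤ b
  · exfalso
    have hs : H ⊓ St (none : GolayPt) ≤ St o := fun k hk =>
      smul_octad_eq (hH hk.1) ho hsub (by rw [hb]; exact c5) (E.smul hk.1 hk.2)
    have h8 : o ⊆ Bs H none := fun y hy => by
      rw [mem_Bs, ← ho.2]
      exact Finset.card_le_card (orb_subset hs hy)
    have h9 := Finset.card_le_card h8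
    rw [hb, ho.2] at h9
    refine c38 (Or.inr (by omega)) fun x y hy => ?_
    obtain ⟨o', ho', hx', hE'⟩ := hO x
    obtain ⟨w', hw'⟩ := exists_notMem_octad ho'
    have e1 : ∀ z ∈ o', Bs H z = o' := fun z hz =>
      Finset.eq_of_subset_of_card_le (Bs_compl ho' hE' hz hw').2 (by rw [hb, ho'.2]; exact h9)
    rw [e1 x hx'] at hy ⊢
    exact e1 y hy
  have : b = 1 ∨ b = 2 ∨ b = 3 ∨ b = 4 := by omega
  rcases this with rfl | rfl | rfl | rfl
  · exact absurd hd' h23
  · exact absurd (Dvd.dvd.trans (by norm_num) hd') h11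
  · exact (c38 (Or.inl rfl) (E.blocks hH (p := 7) (by norm_num) hb (by norm_num)
      (fun x => Dvd.dvd.trans (by norm_num) (hd x)) fun _ => fix7)).elim
  have hB := E.blocks hH (p := 5) (by norm_num) hb (by norm_num) h5 fun _ => fix5
  obtain ⟨u, hu, hu'⟩ := Finset.exists_mem_notMem_of_card_lt_card (s := Bs H none) (t := o)
    (by rw [hb, ho.2]; norm_num)
  have hdis : Disjoint (Bs H u) (Bs H none) := by
    rw [Finset.disjoint_left]
    intro z hz hz'
    apply hu'
    rw [← hB _ _ hz', hB _ _ hz]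
    exact E.self u
  have hun : symmDiff (Bs H u) (Bs H none) = o := by
    rw [hdis.symmDiff_eq_sup]
    refine Finset.eq_of_subset_of_card_le
      (Finset.union_subset (Bs_compl ho hE hu hw).2 hsub) ?_
    rw [Finset.sup_eq_union, Finset.card_union_of_disjoint hdis, hb, hb, ho.2]
  have key : ∀ y, symmDiff (Bs H y) (Bs H none) ∈ CodeSets := fun y => by
    by_cases hy : y ∈ Bs H none
    · rw [hB _ _ hy, symmDiff_self]; exact empty_mem_codeSets
    · have e := (Bs_compl ho hE hx hw).1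
      rw [e, Finset.mem_compl, not_not] at hy hu'
      rw [← orb_eq hu'] at hy
      obtain ⟨k, hk, rfl⟩ := mem_orb.1 hy
      have := smul_mem_codeSets (hH hk.1) (hun ▸ ho.1 : symmDiff (Bs H u) (Bs H none) ∈ CodeSets)
      rwa [smul_symmDiff, E.smul hk.1 hk.2, ← E.eqv k hk.1] at this
  refine ⟨sextetOf (Bs H none), sextetOf_mem (hb _), fun k hk => ?_⟩
  show k • sextetOf (Bs H none) = _
  rw [smul_sextetOf (hH hk) (hb _), ← E.eqv k hk]
  exact (sextetOf_eq_iff (hb _) (hb _)).2 (key _)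

theorem orb_univ_card {H : Subgroup PG} (ht : ∀ x y, y ∈ orb H x) (x : GolayPt) :
    Nat.card H = 24 * Nat.card ↥(H ⊓ St x) := by
  rw [card_orb H x, Finset.eq_univ_of_forall (ht x), Finset.card_univ, card_golayPt]

theorem trans_of_univ {H : Subgroup PG} {x : GolayPt} (h : ∀ y, y ∈ orb H x) :
    ∀ y z, z ∈ orb H y := fun y z => by rw [orb_eq (h y)]; exact h z

/-- subgroups containing a Sylow 2-subgroup, of order divisible by 5 and prime to 11, 23 -/
theorem parabolic {H : Subgroup PG} (hH : H ≤ M24) (h2 : 1024 ∣ Nat.card H) (h5 : 5 ∣ Nat.card H)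
    (h11 : ¬ 11 ∣ Nat.card H) (h23 : ¬ 23 ∣ Nat.card H) :
    (∃ o ∈ octads, H ≤ St o) ∨ ∃ S ∈ sextets, H ≤ St S := by
  have : Fact (Nat.Prime 2) := ⟨Nat.prime_two⟩
  obtain ⟨T, hTH, hT⟩ := exists_psub (n := 10) Nat.prime_two h2
  obtain ⟨o, ho, hf⟩ := exists_fixed T (IsPGroup.of_card hT) octads (Set.toFinite _)
    (fun g hg o ho => smul_mem_octads (hH (hTH hg)) ho) (by rw [ncard_octads]; norm_num)
  have hE : fixSet o ≤ H := (fixSet_le_of_sylow (hTH.trans hH) le_rfl hT
    (by rw [card_M24]; norm_num) ho hf inf_le_left).trans hTH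
  obtain ⟨x, hx⟩ : o.Nonempty := Finset.card_pos.1 (by rw [ho.2]; norm_num)
  have h1 : orb T x = o := by
    refine Finset.eq_of_subset_of_card_le (orb_subset hf hx) ?_
    have h3 := card_orb T x
    have h4 : Nat.card ↥(T ⊓ St x) ∣ 128 := by
      have a := Subgroup.card_dvd_of_le (inf_le_left : T ⊓ St x ≤ T)
      have b := Subgroup.card_dvd_of_le (inf_le_inf_right (St x) (hTH.trans hH))
      rw [hT] at a
      rw [card_stab1] at b
      exact Nat.dvd_gcd a b
    have h6 := Nat.le_of_dvd (by norm_num) h4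
    rw [ho.2]
    by_contra hc
    have := Nat.mul_le_mul (show (orb T x).card ≤ 7 by omega) h6
    omega
  have h3 : o ⊆ orb H x := h1 ▸ orb_mono hTH x
  by_cases hc : orb H x ⊆ o
  · exact Or.inl ⟨o, ho, (Finset.Subset.antisymm hc h3) ▸ le_St_orb H x⟩
  · right
    obtain ⟨w, hw, hw'⟩ := Finset.not_subset.1 hc
    have h4 := compl_subset_orb ho hE hw'
    rw [orb_eq hw] at h4
    have ht := trans_of_univ (H := H) (x := x) fun y => by
      by_cases hy : y ∈ o
      exacts [h3 hy, h4 (Finset.mem_compl.2 hy)]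
    refine sextet_of_trans hH ht (fun y => ?_) (fun y => ?_) h11 h23
    · have := orb_univ_card ht y
      omega
    · have := orb_univ_card ht y
      omega

theorem m24_759 {H : Subgroup PG} (hH : H ≤ M24) (hc : Nat.card H = 322560) :
    ∃ o ∈ octads, H = M24 ⊓ St o := by
  rcases parabolic hH (by rw [hc]; norm_num) (by rw [hc]; norm_num) (by rw [hc]; norm_num)
    (by rw [hc]; norm_num) with ⟨o, ho, h⟩ | ⟨S, hS, h⟩
  · exact ⟨o, ho, eq_of_le_card (le_inf hH h) (by rw [card_stab_octad ho, hc])⟩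
  · have := Subgroup.card_dvd_of_le (le_inf hH h)
    rw [hc, card_stab_sextet hS] at this
    norm_num at this

theorem m24_1771 {H : Subgroup PG} (hH : H ≤ M24) (hc : Nat.card H = 138240) :
    ∃ S ∈ sextets, H = M24 ⊓ St S := by
  rcases parabolic hH (by rw [hc]; norm_num) (by rw [hc]; norm_num) (by rw [hc]; norm_num)
    (by rw [hc]; norm_num) with ⟨o, ho, h⟩ | ⟨S, hS, h⟩
  · have := Subgroup.card_dvd_of_le (le_inf hH h)
    rw [hc, card_stab_octad ho] at this
    norm_num at this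
  · exact ⟨S, hS, eq_of_le_card (le_inf hH h) (by rw [card_stab_sextet hS, hc])⟩

theorem m24_253 {H : Subgroup PG} (hH : H ≤ M24) : Nat.card H ≠ 967680 := by
  intro hc
  rcases parabolic hH (by rw [hc]; norm_num) (by rw [hc]; norm_num) (by rw [hc]; norm_num)
    (by rw [hc]; norm_num) with ⟨o, ho, h⟩ | ⟨S, hS, h⟩
  · have := Subgroup.card_dvd_of_le (le_inf hH h)
    rw [hc, card_stab_octad ho] at this
    norm_num at this
  · have := Subgroup.card_dvd_of_le (le_inf hH h)
    rw [hc, card_stab_sextet hS] at this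
    norm_num at this

theorem orb_ne12 {K : Subgroup PG} (hK : K ≤ M24) (h7 : 7 ∣ Nat.card K) (x : GolayPt) :
    (orb K x).card ≠ 12 := by
  intro e
  obtain ⟨g, hg, hg7⟩ := exists_ord (p := 7) (by norm_num) h7
  have h1 := modEq_fix (by norm_num) hg7 (smul_orb hg x)
  have h2 := Finset.card_le_card (Finset.inter_subset_right (s₁ := orb K x) (s₂ := Fix g))
  rw [fix7 (hK hg) hg7] at h2
  omega

theorem m24_276 {H : Subgroup PG} (hH : H ≤ M24) (hc : Nat.card H = 887040) :
    ∃ s : Finset GolayPt, s.card = 2 ∧ H = M24 ⊓ St s := by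
  obtain ⟨g, hg, hg11⟩ := exists_ord (p := 11) (by norm_num)
    (show 11 ∣ Nat.card H by rw [hc]; norm_num)
  have hF := fix11 (hH hg) hg11
  obtain ⟨x, x', hxx, hFx⟩ := Finset.card_eq_two.1 hF
  have hx : g x = x := mem_Fix.1 (by rw [hFx]; simp)
  have hx' : g x' = x' := mem_Fix.1 (by rw [hFx]; simp)
  have h1 := modEq_fix (by norm_num) hg11 (smul_orb hg x)
  have h2 := card_inter_fix (self_mem_orb H x) hx
  have h3 := card_le24 (orb H x)
  have h4 := card_orb_dvd H x
  have h5 := orb_ne12 hH (by rw [hc]; norm_num) x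
  rw [hc] at h4
  have h6 : (orb H x).card = 1 ∨ (orb H x).card = 2 ∨ (orb H x).card = 13 ∨ (orb H x).card = 23 ∨
      (orb H x).card = 24 := by omega
  rcases h6 with e | e | e | e | e
  · have := Subgroup.card_dvd_of_le (le_inf hH (le_St_of_card_orb e.le))
    rw [hc, card_stab1] at this
    norm_num at this
  · refine ⟨_, e, eq_of_le_card (le_inf hH (le_St_orb H x)) ?_⟩
    rw [hc]
    refine card_le_pair (n := 443520) e inf_le_right fun y _ z _ hyz => ?_
    rw [← card_stab2 hyz]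
    exact Subgroup.card_le_of_le fun k hk => ⟨⟨hk.1.1.1, hk.1.2⟩, hk.2⟩
  · rw [e] at h4; norm_num at h4
  · rw [e] at h4; norm_num at h4
  exfalso
  have ht := trans_of_univ (H := H) (x := x) fun y => by
    rw [Finset.eq_univ_of_card _ (e.trans card_golayPt.symm)]; exact Finset.mem_univ y
  have hs : ∀ y : GolayPt, Nat.card ↥(H ⊓ St y) = 36960 := fun y => by
    have := orb_univ_card ht y
    omega
  have E : Eqv H (Bq (fun n => Nat.ble n 1) H) := eqv_Bq rfl H
  have hBx : Bq (fun n => Nat.ble n 1) H x = Fix g := by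
    apply Finset.Subset.antisymm
    · intro z hz
      rw [mem_Bq, Nat.ble_eq] at hz
      exact mem_Fix.2 (le_St_of_card_orb hz ⟨hg, hx⟩)
    · rw [hFx, Finset.insert_subset_iff, Finset.singleton_subset_iff]
      refine ⟨E.self x, ?_⟩
      rw [mem_Bq, Nat.ble_eq]
      have hn := notMem_orb (K := H ⊓ St x) inf_le_right hxx.symm
      have a1 := modEq_fix (by norm_num) hg11 (smul_orb (K := H ⊓ St x) ⟨hg, hx⟩ x')
      have a2 : orb (H ⊓ St x) x' ∩ Fix g = {x'} := by
        rw [hFx, Finset.inter_insert_of_notMem hn,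
          Finset.inter_singleton_of_mem (self_mem_orb _ _)]
      have a3 := card_le24 (orb (H ⊓ St x) x')
      have a4 := card_orb_dvd (H ⊓ St x) x'
      have a5 := orb_ne12 (K := H ⊓ St x) (inf_le_left.trans hH) (by rw [hs]; norm_num) x'
      rw [a2, Finset.card_singleton] at a1
      rw [hs] at a4
      by_contra a6
      rw [show (orb (H ⊓ St x) x').card = 23 by omega] at a4
      norm_num at a4
  have hb : ∀ y, (Bq (fun n => Nat.ble n 1) H y).card = 2 := fun y => by
    rw [E.card_eq (ht x y), hBx, hF]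
  have hB := E.blocks hH (p := 11) (by norm_num) hb (by norm_num)
    (fun y => by rw [hs]; norm_num) fun _ => fix11
  obtain ⟨k, hk, hk7⟩ := exists_ord (p := 7) (by norm_num)
    (show 7 ∣ Nat.card H by rw [hc]; norm_num)
  have hF7 := fix7 (hH hk) hk7
  refine blocks_false E.self hB (Φ := Fix k) (m := 2) (fun y hy => ?_) (by omega) (by omega)
  have a1 := modEq_fix (by norm_num) hk7 (E.smul hk (mem_Fix.1 hy))
  have a2 := card_inter_fix (E.self y) (mem_Fix.1 hy)
  rw [hb] at a1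
  omega

theorem eqns_MIdx_Main : True := by
  have := @Bs.eq_def
  have := @Bs.eq_1
  trivial

end H16.MI
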