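import Mathlib
import Cfsg.Agent.Lib.MIdx.Main

/-! `M22` has no subgroups of index 56 or 210. -/

set_option autoImplicit false

namespace H16.MI
open Cfsg H15 H55.Golay H96.Geo
open scoped Pointwise

theorem m22_210 {K : Subgroup PG} (hK : K ≤ M24) : Nat.card K ≠ 2112 := by
  intro hc
  have : Fact (Nat.Prime 11) := ⟨by norm_num⟩
  have : Fact (Nat.Prime 2) := ⟨by norm_num⟩
  obtain ⟨P⟩ : Nonempty (Sylow 11 K) := inferInstance
  have hP : Nat.card P = 11 := by
    rw [P.card_eq_multiplicity, hc]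
    have : Nat.factorization 2112 11 = 1 := by
      rw [show 2112 = 11 * 192 by norm_num, Nat.factorization_mul (by norm_num) (by norm_num),
        Finsupp.add_apply, Nat.Prime.factorization_self (by norm_num),
        Nat.factorization_eq_zero_of_not_dvd (by norm_num)]
    rw [this, pow_one]
  have h1 := card_sylow_modEq_one 11 K
  have h2 := P.card_dvd_index
  have h3 := (P : Subgroup K).card_mul_index
  have h4 := (Subgroup.normalizer (P : Set K)).card_mul_index
  have h5 := P.card_eq_index_normalizer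
  rw [hP, hc] at h3
  rw [show (P : Subgroup K).index = 192 by omega] at h2
  have h6 : Nat.card (Sylow 11 K) = 1 ∨ Nat.card (Sylow 11 K) = 12 := by
    have := Nat.le_of_dvd (by norm_num) h2
    unfold Nat.ModEq at h1
    generalize Nat.card (Sylow 11 K) = n at h1 h2 this
    interval_cases n <;> omega
  have h7 : 16 ∣ Nat.card (Subgroup.normalizer (P : Set K)) := by
    rw [hc, ← h5] at h4
    rcases h6 with e | e <;> rw [e] at h4 <;> omega
  have hcyc : IsCyclic P := isCyclic_of_prime_card hP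
  have h8 := Subgroup.card_dvd_of_injective _ (P : Subgroup K).normalizerMonoidHom.range.subtype_injective
  rw [IsCyclic.card_mulAut, hP, show Nat.totient 11 = 10 by decide] at h8
  have h9 := (P : Subgroup K).normalizerMonoidHom.ker.card_mul_index
  rw [Subgroup.index_ker] at h9
  have h10 : 2 ∣ Nat.card (P : Subgroup K).normalizerMonoidHom.ker := by
    have := Nat.le_of_dvd (by norm_num) h8
    change 16 ∣ Nat.card (Subgroup.normalizer ((P : Subgroup K) : Set K)) at h7
    rw [← h9] at h7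
    generalize Nat.card (P : Subgroup K).normalizerMonoidHom.range = n at h7 h8 this
    interval_cases n <;> omega
  obtain ⟨t, ht⟩ := exists_prime_orderOf_dvd_card' 2 h10
  obtain ⟨g, hg⟩ := exists_prime_orderOf_dvd_card' (G := P) 11 (by rw [hP])
  have ht' : orderOf (t.1.1.1 : PG) = 2 := by
    rw [Subgroup.orderOf_coe, Subgroup.orderOf_coe, Subgroup.orderOf_coe, ht]
  have hg' : orderOf (g.1.1 : PG) = 11 := by
    rw [Subgroup.orderOf_coe, Subgroup.orderOf_coe, hg]
  have hm := Subgroup.mem_subgroupOf.1 ((P : Subgroup K).normalizerMonoidHom_ker.le t.2)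
  have hcomm : Commute (g.1.1 : PG) t.1.1.1 := congrArg Subtype.val (hm g.1 g.2)
  have := hcomm.orderOf_mul_eq_mul_orderOf_of_coprime (by rw [ht', hg']; norm_num)
  rw [ht', hg'] at this
  exact (fix_of_ord (hK (K.mul_mem g.1.2 t.1.1.2))).2.2.2 this

section
variable {K : Subgroup PG} {p q : GolayPt}

theorem orb22 (hpq : p ≠ q) (hK : K ≤ M24 ⊓ St p ⊓ St q) (hc : Nat.card K = 7920) {w : GolayPt}
    (hp : w ≠ p) (hq : w ≠ q) : orb K w = {p, q}ᶜ := by
  have : Fact (Nat.Prime 3) := ⟨by norm_num⟩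
  obtain ⟨g, hg, hg11⟩ := exists_ord (p := 11) (by norm_num)
    (show 11 ∣ Nat.card K by rw [hc]; norm_num)
  have hF : ({p, q} : Finset GolayPt) = Fix g := Finset.eq_of_subset_of_card_le
    (Finset.insert_subset (mem_Fix.2 (hK hg).1.2)
      (Finset.singleton_subset_iff.2 (mem_Fix.2 (hK hg).2)))
    (by rw [fix11 (hK hg).1.1 hg11, Finset.card_pair hpq])
  have np := notMem_orb (hK.trans (inf_le_left.trans inf_le_right)) hp
  have nq := notMem_orb (hK.trans inf_le_right) hq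
  have h1 : orb K w ⊆ {p, q}ᶜ := fun y hy => by
    rw [Finset.mem_compl, Finset.mem_insert, Finset.mem_singleton]
    rintro (rfl | rfl)
    exacts [np hy, nq hy]
  have h2 := modEq_fix (by norm_num) hg11 (smul_orb hg w)
  rw [← hF, Finset.inter_insert_of_notMem np, Finset.inter_singleton_of_notMem nq,
    Finset.card_empty] at h2
  have h3 := Finset.card_le_card h1
  have h4 := Finset.card_pos.2 ⟨w, self_mem_orb K w⟩
  refine Finset.eq_of_subset_of_card_le h1 ?_
  rw [card_compl24, Finset.card_pair hpq] at h3 ⊢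
  by_contra h5
  have h6 : (orb K w).card = 11 := by omega
  obtain ⟨Q, hQK, hQ⟩ := exists_psub (p := 3) (n := 2) (K := K) (by norm_num)
    (by rw [hc]; norm_num)
  have h7 := modEq_fixed Q (IsPGroup.of_card hQ) (orb K w : Set GolayPt) (Set.toFinite _)
    fun k hk x hx => (apply_mem_of_smul_eq (smul_orb (hQK hk) w)).2 hx
  rw [Set.ncard_coe_finset, h6] at h7
  obtain ⟨u, hu, v, hv, huv⟩ := (Set.one_lt_ncard (Set.toFinite
    {x | x ∈ (orb K w : Set GolayPt) ∧ ∀ g ∈ Q, g • x = x})).1 (by unfold Nat.ModEq at h7; omega)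
  have h8 : Q ≤ M24 ⊓ St p ⊓ St q ⊓ St u ⊓ St v := fun k hk =>
    ⟨⟨hK (hQK hk), hu.2 k hk⟩, hv.2 k hk⟩
  have h9 := Subgroup.card_dvd_of_le h8
  rw [hQ, card_stab4 hpq (fun e => np (e ▸ hu.1)) (fun e => nq (e ▸ hu.1))
    (fun e => np (e ▸ hv.1)) (fun e => nq (e ▸ hv.1)) huv] at h9
  norm_num at h9

theorem stab360 (hpq : p ≠ q) (hK : K ≤ M24 ⊓ St p ⊓ St q) (hc : Nat.card K = 7920) {w : GolayPt}
    (hp : w ≠ p) (hq : w ≠ q) : Nat.card ↥(K ⊓ St w) = 360 := by
  have := card_orb K w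
  rw [orb22 hpq hK hc hp hq, card_compl24, Finset.card_pair hpq] at this
  omega

/-- the orbit of length 6 of a point stabiliser -/
noncomputable abbrev G6 (K : Subgroup PG) (x : GolayPt) : Finset GolayPt :=
  Bq (fun n => Nat.beq n 6) K x

theorem mem_G6 {x y : GolayPt} : y ∈ G6 K x ↔ (orb (K ⊓ St x) y).card = 6 := by
  rw [mem_Bq, Nat.beq_eq]

theorem notMem_G6 {x y : GolayPt} (h : K ⊓ St x ≤ St y) : y ∉ G6 K x := by
  rw [mem_G6, orb_fix h, Finset.card_singleton]; norm_num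

theorem G6_eq (hpq : p ≠ q) (hK : K ≤ M24 ⊓ St p ⊓ St q) (hc : Nat.card K = 7920) {x y : GolayPt}
    (hp : x ≠ p) (hq : x ≠ q) {g : PG} (hg : g ∈ K) (h5 : orderOf g = 5) (hx : g x = x)
    (hy : g y = y) (yp : y ≠ p) (yq : y ≠ q) (yx : y ≠ x) :
    Fix g = {p, q, x, y} ∧ G6 K x = orb (K ⊓ St x) y ∧ (G6 K x).card = 6 := by
  have sp : K ⊓ St x ≤ St p := fun k hk => (hK hk.1).1.2
  have sq : K ⊓ St x ≤ St q := fun k hk => (hK hk.1).2
  have hF : ({p, q, x, y} : Finset GolayPt) = Fix g := Finset.eq_of_subset_of_card_le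
    (Finset.insert_subset (mem_Fix.2 (hK hg).1.2) (Finset.insert_subset (mem_Fix.2 (hK hg).2)
      (Finset.insert_subset (mem_Fix.2 hx) (Finset.singleton_subset_iff.2 (mem_Fix.2 hy)))))
    (by
      rw [fix5 (hK hg).1.1 h5, Finset.card_insert_of_notMem (by simp [hpq, hp.symm, yp.symm]),
        Finset.card_insert_of_notMem (by simp [hq.symm, yq.symm]), Finset.card_pair yx.symm])
  have h6 : (orb (K ⊓ St x) y).card = 6 := by
    have a1 := modEq_fix (by norm_num) h5 (smul_orb (K := K ⊓ St x) ⟨hg, hx⟩ y)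
    rw [← hF, Finset.inter_insert_of_notMem (notMem_orb sp yp),
      Finset.inter_insert_of_notMem (notMem_orb sq yq),
      Finset.inter_insert_of_notMem (notMem_orb inf_le_right yx),
      Finset.inter_singleton_of_mem (self_mem_orb _ _), Finset.card_singleton] at a1
    have a3 := card_le24 (orb (K ⊓ St x) y)
    have a4 := card_orb_dvd (K ⊓ St x) y
    rw [stab360 hpq hK hc hp hq] at a4
    have a5 : (orb (K ⊓ St x) y).card ≠ 1 := fun e => by
      have h8 : K ⊓ St x ≤ M24 ⊓ St p ⊓ St q ⊓ St x ⊓ St y := fun k hk =>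
        ⟨⟨hK hk.1, hk.2⟩, le_St_of_card_orb e.le hk⟩
      have h9 := Subgroup.card_dvd_of_le h8
      rw [stab360 hpq hK hc hp hq, card_stab4 hpq hp.symm hq.symm yp.symm yq.symm yx.symm] at h9
      norm_num at h9
    generalize (orb (K ⊓ St x) y).card = n at a1 a3 a4 a5
    interval_cases n <;> omega
  have h7 : G6 K x = orb (K ⊓ St x) y := by
    ext z
    rw [mem_G6]
    refine ⟨fun hz => ?_, fun hz => by rw [orb_eq hz, h6]⟩
    have a1 := modEq_fix (by norm_num) h5 (smul_orb (K := K ⊓ St x) ⟨hg, hx⟩ z)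
    obtain ⟨u, hu⟩ : (orb (K ⊓ St x) z ∩ Fix g).Nonempty := Finset.card_pos.1 (by omega)
    rw [Finset.mem_inter, ← hF] at hu
    have a2 : ∀ v, K ⊓ St x ≤ St v → v ∉ orb (K ⊓ St x) z := fun v hv hv' => by
      rw [← orb_eq hv', orb_fix hv, Finset.card_singleton] at hz
      omega
    have a3 := hu.2
    simp only [Finset.mem_insert, Finset.mem_singleton] at a3
    rcases a3 with rfl | rfl | rfl | rfl
    · exact absurd hu.1 (a2 _ sp)
    · exact absurd hu.1 (a2 _ sq)
    · exact absurd hu.1 (a2 _ inf_le_right)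
    · rw [orb_eq hu.1]; exact self_mem_orb _ _
  exact ⟨hF.symm, h7, h7 ▸ h6⟩

theorem fix3_eq (hpq : p ≠ q) (hK : K ≤ M24 ⊓ St p ⊓ St q) {x y : GolayPt}
    (hp : x ≠ p) (hq : x ≠ q) (h6 : (G6 K x).card = 6) (hy : y ∈ G6 K x) {r : PG} (hr : r ∈ K)
    (h3 : orderOf r = 3) (hx : r x = x) (hy' : r y = y) :
    (G6 K x ∩ Fix r).card = 3 ∧ ∀ u ∈ Fix r, u ≠ p → u ≠ q → u ≠ x → u ∈ G6 K x := by
  have np : p ∉ G6 K x := notMem_G6 fun k hk => (hK hk.1).1.2
  have nq : q ∉ G6 K x := notMem_G6 fun k hk => (hK hk.1).2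
  have nx : x ∉ G6 K x := notMem_G6 inf_le_right
  have hF := fix3 (hK hr).1.1 h3 hx
  have hsm : r • G6 K x = G6 K x := by rw [← Bq_eqv _ hr, hx]
  have a1 := modEq_fix (by norm_num) h3 hsm
  have a2 := card_inter_fix hy hy'
  have a3 : insert p (insert q (insert x (G6 K x ∩ Fix r))) ⊆ Fix r :=
    Finset.insert_subset (mem_Fix.2 (hK hr).1.2) (Finset.insert_subset (mem_Fix.2 (hK hr).2)
      (Finset.insert_subset (mem_Fix.2 hx) Finset.inter_subset_right))
  have a4 : (insert p (insert q (insert x (G6 K x ∩ Fix r)))).card = (G6 K x ∩ Fix r).card + 3 := by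
    rw [Finset.card_insert_of_notMem (by simp [hpq, hp.symm, np]),
      Finset.card_insert_of_notMem (by simp [hq.symm, nq]),
      Finset.card_insert_of_notMem (by simp [nx])]
  have a5 := Finset.card_le_card a3
  have a6 : (G6 K x ∩ Fix r).card = 3 := by omega
  refine ⟨a6, fun u hu up uq ux => ?_⟩
  rw [← Finset.eq_of_subset_of_card_le a3 (by omega)] at hu
  simp only [Finset.mem_insert, Finset.mem_inter, up, uq, ux, false_or] at hu
  exact hu.1

theorem G6_block (hpq : p ≠ q) (hK : K ≤ M24 ⊓ St p ⊓ St q) (hc : Nat.card K = 7920)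
    {x y : GolayPt} (hp : x ≠ p) (hq : x ≠ q) (hy : y ∈ G6 K x) :
    insert y (G6 K y) = insert x (G6 K x) := by
  have np : ∀ z, p ∉ G6 K z := fun z => notMem_G6 fun k hk => (hK hk.1).1.2
  have nq : ∀ z, q ∉ G6 K z := fun z => notMem_G6 fun k hk => (hK hk.1).2
  have nx : ∀ z, z ∉ G6 K z := fun z => notMem_G6 inf_le_right
  have yp : y ≠ p := fun e => np x (e ▸ hy)
  have yq : y ≠ q := fun e => nq x (e ▸ hy)
  have yx : y ≠ x := fun e => nx x (e ▸ hy)
  have h60 : Nat.card ↥(K ⊓ St x ⊓ St y) = 60 := by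
    have := card_orb (K ⊓ St x) y
    rw [mem_G6.1 hy, stab360 hpq hK hc hp hq] at this
    omega
  obtain ⟨g, hg, h5⟩ := exists_ord (p := 5) (K := K ⊓ St x ⊓ St y) (by norm_num)
    (by rw [h60]; norm_num)
  obtain ⟨r, hr, h3⟩ := exists_ord (p := 3) (K := K ⊓ St x ⊓ St y) (by norm_num)
    (by rw [h60]; norm_num)
  obtain ⟨hF, -, cx⟩ := G6_eq hpq hK hc hp hq hg.1.1 h5 hg.1.2 hg.2 yp yq yx
  obtain ⟨-, ey, cy⟩ := G6_eq hpq hK hc yp yq hg.1.1 h5 hg.2 hg.1.2 hp hq yx.symm
  have hx : x ∈ G6 K y := ey ▸ self_mem_orb _ _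
  obtain ⟨b1, -⟩ := fix3_eq hpq hK hp hq cx hy hr.1.1 h3 hr.1.2 hr.2
  obtain ⟨-, b2⟩ := fix3_eq hpq hK yp yq cy hx hr.1.1 h3 hr.2 hr.1.2
  obtain ⟨u, hu, uy⟩ := Finset.exists_mem_notMem_of_card_lt_card (s := {y}) (t := G6 K x ∩ Fix r)
    (by rw [b1]; simp)
  rw [Finset.mem_inter] at hu
  have hu' := b2 u hu.2 (fun e => np x (e ▸ hu.1)) (fun e => nq x (e ▸ hu.1)) (by simpa using uy)
  have hsm : g • (G6 K x ∩ G6 K y) = G6 K x ∩ G6 K y := by
    rw [smul_inter, ← Bq_eqv _ hg.1.1, ← Bq_eqv _ hg.1.1, show g x = x from hg.1.2,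
      show g y = y from hg.2]
  have a1 := modEq_fix (by norm_num) h5 hsm
  rw [hF, Finset.inter_insert_of_notMem (by simp [np]), Finset.inter_insert_of_notMem (by simp [nq]),
    Finset.inter_insert_of_notMem (by simp [nx]), Finset.inter_singleton_of_notMem (by simp [nx]),
    Finset.card_empty] at a1
  have a2 := Finset.card_pos.2 ⟨u, Finset.mem_inter.2 ⟨hu.1, hu'⟩⟩
  have a3 : ∀ {a b : GolayPt}, b ∈ G6 K a → (G6 K a).card = 6 → G6 K x ∩ G6 K y ⊆ G6 K a →
      b ∉ G6 K x ∩ G6 K y → G6 K a = insert b (G6 K x ∩ G6 K y) := fun hb c6 hs hn => by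
    refine (Finset.eq_of_subset_of_card_le (Finset.insert_subset hb hs) ?_).symm
    rw [Finset.card_insert_of_notMem hn]
    omega
  rw [a3 hy cx Finset.inter_subset_left (by simp [nx])]
  conv_lhs => rw [a3 hx cy Finset.inter_subset_right (by simp [nx])]
  exact Finset.insert_comm _ _ _

theorem m22_56 (hpq : p ≠ q) (hK : K ≤ M24 ⊓ St p ⊓ St q) : Nat.card K ≠ 7920 := by
  intro hc
  obtain ⟨x, -, hx⟩ := Finset.exists_mem_notMem_of_card_lt_card (s := {p, q})
    (t := (Finset.univ : Finset GolayPt))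
    (by rw [Finset.card_pair hpq, Finset.card_univ, card_golayPt]; norm_num)
  simp only [Finset.mem_insert, Finset.mem_singleton, not_or] at hx
  obtain ⟨g, hg, h5⟩ := exists_ord (p := 5) (K := K ⊓ St x) (by norm_num)
    (by rw [stab360 hpq hK hc hx.1 hx.2]; norm_num)
  obtain ⟨y, hy, hy'⟩ := Finset.exists_mem_notMem_of_card_lt_card (s := {p, q, x}) (t := Fix g)
    (by rw [fix5 (hK hg.1).1.1 h5]; exact Nat.lt_succ_of_le Finset.card_le_three)
  simp only [Finset.mem_insert, Finset.mem_singleton, not_or] at hy'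
  obtain ⟨-, -, cx⟩ := G6_eq hpq hK hc hx.1 hx.2 hg.1 h5 hg.2 (mem_Fix.1 hy) hy'.1 hy'.2.1 hy'.2.2
  have h1 : insert x (G6 K x) = orb (K ⊓ St (insert x (G6 K x))) x := by
    refine Finset.Subset.antisymm (fun z hz => ?_)
      (orb_subset inf_le_right (Finset.mem_insert_self _ _))
    rcases Finset.mem_insert.1 hz with rfl | hz
    · exact self_mem_orb _ _
    have hz' : z ∈ orb K x := by
      rw [orb22 hpq hK hc hx.1 hx.2, Finset.mem_compl, Finset.mem_insert, Finset.mem_singleton]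
      rintro (rfl | rfl)
      · exact notMem_G6 (fun k hk => (hK hk.1).1.2) hz
      · exact notMem_G6 (fun k hk => (hK hk.1).2) hz
    obtain ⟨k, hk, rfl⟩ := mem_orb.1 hz'
    refine mem_orb.2 ⟨k, ⟨hk, ?_⟩, rfl⟩
    show k • insert x (G6 K x) = _
    rw [Finset.smul_finset_insert, ← Bq_eqv _ hk]
    exact G6_block hpq hK hc hx.1 hx.2 hz
  have h2 := (card_orb_dvd (K ⊓ St (insert x (G6 K x))) x).trans
    (Subgroup.card_dvd_of_le inf_le_left)
  rw [← h1, Finset.card_insert_of_notMem (notMem_G6 inf_le_right), cx, hc] at h2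
  norm_num at h2

end

theorem eqns_MIdx_M22 : True := by
  have := @G6.eq_def
  have := @G6.eq_1
  trivial

end H16.MI
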